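import Cfsg.Agent.Lib.H01.ExtraIso
import Cfsg.Prelude.Def_KGroupFacts

/-!
# The Griess automorphisms of an extraspecial 2-group

For `v` with `v * v = z` the map sending `x` to `x` if `x` commutes with `v` and to `x * v` otherwise
is an automorphism whose square is conjugation by `v` (it induces a transvection on `Q / Z(Q)`).
-/

set_option autoImplicit false

namespace Cfsg.Agent.H08.Griess

open Cfsg

variable {Q : Type*} [Group Q]

/-- The data of an extraspecial 2-group: central involution `z` generating all commutators. -/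
structure ESData (z : Q) : Prop where
  z1 : z ≠ 1
  zz : z * z = 1
  zc : ∀ x, x * z = z * x
  d : ∀ a b : Q, a * b = b * a ∨ a * b = z * (b * a)
  sq : ∀ x : Q, x * x = 1 ∨ x * x = z
  cen : ∀ c : Q, (∀ x, c * x = x * c) → c = 1 ∨ c = z

open Classical in
/-- The Griess map. -/
noncomputable def betaFun (v x : Q) : Q := if x * v = v * x then x else x * v

theorem beta_comm {v x : Q} (h : x * v = v * x) : betaFun v x = x := by
  simp [betaFun, h]

theorem beta_not {v x : Q} (h : x * v ≠ v * x) : betaFun v x = x * v := by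
  simp [betaFun, h]

variable {z : Q}

theorem anti (hE : ESData z) {v x : Q} (h : x * v ≠ v * x) : x * v = z * (v * x) :=
  (hE.d x v).resolve_left h

theorem beta_mul (hE : ESData z) {v : Q} (hv : v * v = z) (x y : Q) :
    betaFun v (x * y) = betaFun v x * betaFun v y := by
  by_cases hx : x * v = v * x <;> by_cases hy : y * v = v * y
  · have h : (x * y) * v = v * (x * y) := by
      rw [mul_assoc, hy, ← mul_assoc, hx, mul_assoc]
    rw [beta_comm h, beta_comm hx, beta_comm hy]
  · have h : (x * y) * v ≠ v * (x * y) := by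
      intro h1
      apply hy
      have h2 : x * (y * v) = x * (v * y) := by
        calc x * (y * v) = (x * y) * v := by group
          _ = v * (x * y) := h1
          _ = (v * x) * y := by group
          _ = (x * v) * y := by rw [hx]
          _ = _ := by group
      exact mul_left_cancel h2
    rw [beta_not h, beta_comm hx, beta_not hy, mul_assoc]
  · have h : (x * y) * v ≠ v * (x * y) := by
      intro h1
      apply hx
      have h2 : (x * v) * y = (v * x) * y := by
        calc (x * v) * y = x * (v * y) := by group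
          _ = x * (y * v) := by rw [hy]
          _ = (x * y) * v := by group
          _ = v * (x * y) := h1
          _ = _ := by group
      exact mul_right_cancel h2
    rw [beta_not h, beta_not hx, beta_comm hy, mul_assoc, mul_assoc, hy]
  · have hzz := hE.zz
    have hxa := anti hE hx
    have hya := anti hE hy
    have h : (x * y) * v = v * (x * y) := by
      calc (x * y) * v = x * (y * v) := by group
        _ = x * (z * (v * y)) := by rw [hya]
        _ = (x * z) * (v * y) := by group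
        _ = (z * x) * (v * y) := by rw [hE.zc x]
        _ = z * ((x * v) * y) := by group
        _ = z * ((z * (v * x)) * y) := by rw [hxa]
        _ = (z * z) * (v * (x * y)) := by group
        _ = _ := by rw [hzz, one_mul]
    rw [beta_comm h, beta_not hx, beta_not hy]
    have hvy : v * y = z * (y * v) := by
      calc v * y = (z * z) * (v * y) := by rw [hzz, one_mul]
        _ = z * (z * (v * y)) := by group
        _ = _ := by rw [hya]
    symm
    calc x * v * (y * v) = x * (v * y) * v := by group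
      _ = x * (z * (y * v)) * v := by rw [hvy]
      _ = (x * z) * y * (v * v) := by group
      _ = (z * x) * y * z := by rw [hE.zc x, hv]
      _ = z * (x * y) * z := by group
      _ = z * ((x * y) * z) := by group
      _ = z * (z * (x * y)) := by rw [hE.zc (x * y)]
      _ = (z * z) * (x * y) := by group
      _ = x * y := by rw [hzz, one_mul]

/-- The Griess homomorphism. -/
noncomputable def betaHom (hE : ESData z) {v : Q} (hv : v * v = z) : Q →* Q :=
  MonoidHom.mk' (betaFun v) (beta_mul hE hv)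

theorem betaHom_apply (hE : ESData z) {v : Q} (hv : v * v = z) (x : Q) :
    betaHom hE hv x = betaFun v x := rfl

theorem beta_beta (hE : ESData z) {v : Q} (hv : v * v = z) (x : Q) :
    betaFun v (betaFun v x) = v * x * v⁻¹ := by
  by_cases hx : x * v = v * x
  · rw [beta_comm hx, beta_comm hx, ← hx]
    group
  · have h : (x * v) * v ≠ v * (x * v) := by
      intro h1
      apply hx
      have h2 : (x * v) * v = (v * x) * v := by
        rw [h1]; group
      exact mul_right_cancel h2
    rw [beta_not hx, beta_not h, mul_assoc, hv, hE.zc]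
    have hxa := anti hE hx
    have hvx : v * x = z * (x * v) := by
      calc v * x = (z * z) * (v * x) := by rw [hE.zz, one_mul]
        _ = z * (z * (v * x)) := by group
        _ = _ := by rw [hxa]
    rw [hvx]
    group

theorem beta_injective (hE : ESData z) {v : Q} (hv : v * v = z) :
    Function.Injective (betaHom hE hv) := by
  rw [injective_iff_map_eq_one]
  intro x hx
  rw [betaHom_apply] at hx
  by_cases h : x * v = v * x
  · rwa [beta_comm h] at hx
  · rw [beta_not h] at hx
    exfalso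
    apply h
    have h1 : x = v⁻¹ := eq_inv_of_mul_eq_one_left hx
    rw [h1]
    group

/-- The Griess automorphism. -/
noncomputable def betaAut [Finite Q] (hE : ESData z) {v : Q} (hv : v * v = z) : MulAut Q :=
  MulEquiv.ofBijective (betaHom hE hv)
    ⟨beta_injective hE hv, Finite.injective_iff_surjective.1 (beta_injective hE hv)⟩

theorem betaAut_apply [Finite Q] (hE : ESData z) {v : Q} (hv : v * v = z) (x : Q) :
    betaAut hE hv x = betaFun v x := rfl

theorem betaAut_sq [Finite Q] (hE : ESData z) {v : Q} (hv : v * v = z) :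
    betaAut hE hv * betaAut hE hv = MulAut.conj v := by
  ext x
  show betaAut hE hv (betaAut hE hv x) = MulAut.conj v x
  rw [betaAut_apply, betaAut_apply, beta_beta hE hv, MulAut.conj_apply]

theorem betaAut_comm [Finite Q] (hE : ESData z) {v w : Q} (hv : v * v = z) (hw : w * w = z)
    (hvw : v * w = w * v) : betaAut hE hv * betaAut hE hw = betaAut hE hw * betaAut hE hv := by
  ext x
  show betaAut hE hv (betaAut hE hw x) = betaAut hE hw (betaAut hE hv x)
  rw [betaAut_apply, betaAut_apply, betaAut_apply, betaAut_apply]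
  have key : ∀ {s t y : Q}, s * t = t * s → y * t ≠ t * y → (y * s) * t ≠ t * (y * s) := by
    intro s t y hst hy h1
    apply hy
    have h2 : (y * t) * s = (t * y) * s := by
      calc (y * t) * s = y * (t * s) := by group
        _ = y * (s * t) := by rw [hst]
        _ = (y * s) * t := by group
        _ = t * (y * s) := h1
        _ = _ := by group
    exact mul_right_cancel h2
  have key2 : ∀ {s t y : Q}, s * t = t * s → y * t = t * y → (y * s) * t = t * (y * s) := by
    intro s t y hst hy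
    calc (y * s) * t = y * (s * t) := by group
      _ = y * (t * s) := by rw [hst]
      _ = (y * t) * s := by group
      _ = (t * y) * s := by rw [hy]
      _ = _ := by group
  by_cases h1 : x * v = v * x <;> by_cases h2 : x * w = w * x
  · rw [beta_comm h2, beta_comm h1, beta_comm h2]
  · rw [beta_not h2, beta_comm h1, beta_not h2, beta_comm (key2 hvw.symm h1)]
  · rw [beta_comm h2, beta_not h1, beta_comm (key2 hvw h2)]
  · rw [beta_not h2, beta_not h1, beta_not (key hvw.symm h1), beta_not (key hvw h2), mul_assoc,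
      mul_assoc, hvw]

/-- An automorphism conjugates inner automorphisms. -/
theorem aut_mul_conj (B : MulAut Q) (u : Q) : B * MulAut.conj u = MulAut.conj (B u) * B := by
  ext x
  show B (MulAut.conj u x) = MulAut.conj (B u) (B x)
  simp [MulAut.conj_apply, map_mul, map_inv]

theorem conj_eq_one_iff {c : Q} (h : MulAut.conj c = 1) : ∀ x, c * x = x * c := by
  intro x
  have h1 : MulAut.conj c x = x := by rw [h]; rfl
  rw [MulAut.conj_apply] at h1
  rw [mul_inv_eq_iff_eq_mul] at h1
  exact h1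

/-- The main argument, with three suitable pairs. -/
theorem no_complement [Finite Q] (hE : ESData z) {a₁ a₂ a₃ b₂ b₃ : Q} (h₁ : a₁ * a₁ = z)
    (h₂ : a₂ * a₂ = z) (h₃ : a₃ * a₃ = z) (h12 : a₁ * a₂ = a₂ * a₁) (h13 : a₁ * a₃ = a₃ * a₁)
    (h23 : a₂ * a₃ = a₃ * a₂) (hb21 : b₂ * a₁ = a₁ * b₂) (hb22 : b₂ * a₂ ≠ a₂ * b₂)
    (hb23 : b₂ * a₃ = a₃ * b₂) (hb31 : b₃ * a₁ = a₁ * b₃) (hb33 : b₃ * a₃ ≠ a₃ * b₃)
    (L : Subgroup (MulAut Q)) : ¬ (Cfsg.Inn Q).IsComplement' L := by
  intro hL
  have hdisj := hL.disjoint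
  have hbot : ∀ g ∈ L, ∀ y : Q, g = MulAut.conj y → g = 1 := by
    intro g hg y hy
    have h1 : g ∈ (Cfsg.Inn Q) ⊓ L := ⟨⟨y, hy.symm⟩, hg⟩
    rw [hdisj.eq_bot] at h1
    exact Subgroup.mem_bot.1 h1
  have hdec : ∀ g : MulAut Q, ∃ u : Q, ∃ l ∈ L, l = MulAut.conj u * g := by
    intro g
    obtain ⟨⟨⟨i, hi⟩, ⟨l, hl⟩⟩, he⟩ := (Subgroup.isComplement'_def.1 hL).2 g
    obtain ⟨y, rfl⟩ := hi
    refine ⟨y⁻¹, l, hl, ?_⟩
    have he' : MulAut.conj y * l = g := he
    rw [← he', map_inv]
    group
  -- commuting data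
  have hncen : ∀ {v : Q}, v * v = z → ¬ ∀ x, v * x = x * v := by
    intro v hv h
    rcases hE.cen v h with rfl | rfl
    · rw [mul_one] at hv
      exact hE.z1 hv.symm
    · exact hE.z1 (by
        have h2 : v * v = v * 1 := by rw [mul_one]; exact hv
        exact (mul_left_cancel h2).trans (by rfl))
  -- step A
  have stepA : ∀ {v : Q} (hv : v * v = z) (u : Q) (l : MulAut Q), l ∈ L →
      l = MulAut.conj u * betaAut hE hv → u * v ≠ v * u := by
    intro v hv u l hl hle huv
    set B := betaAut hE hv with hB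
    have h1 : l * l = MulAut.conj (u * B u * v) := by
      rw [hle]
      calc MulAut.conj u * B * (MulAut.conj u * B) = MulAut.conj u * (B * MulAut.conj u) * B := by group
        _ = MulAut.conj u * (MulAut.conj (B u) * B) * B := by rw [aut_mul_conj]
        _ = MulAut.conj u * MulAut.conj (B u) * (B * B) := by group
        _ = MulAut.conj u * MulAut.conj (B u) * MulAut.conj v := by rw [hB, betaAut_sq]
        _ = _ := by rw [map_mul, map_mul]
    have h2 := hbot _ (L.mul_mem hl hl) _ h1
    rw [h1] at h2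
    have h3 := conj_eq_one_iff h2
    have h4 : B u = u := by
      rw [hB, betaAut_apply, beta_comm huv]
    rw [h4] at h3
    have h5 : (u * u) * v = u * u * v := rfl
    have hcuu : ∀ x, (u * u) * x = x * (u * u) := by
      intro x
      rcases hE.sq u with h | h
      · rw [h]; group
      · rw [h]; exact (hE.zc x).symm
    apply hncen hv
    intro x
    have h6 := h3 x
    have h7 : u * u * (v * x) = u * u * (x * v) := by
      calc u * u * (v * x) = u * u * v * x := by group
        _ = x * (u * u * v) := h6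
        _ = (x * (u * u)) * v := by group
        _ = (u * u * x) * v := by rw [hcuu x]
        _ = _ := by group
    exact mul_left_cancel h7
  -- step B
  have stepB : ∀ {v w : Q} (hv : v * v = z) (hw : w * w = z) (hvw : v * w = w * v) (t : Q),
      t * v = v * t → t * w ≠ w * t → ∀ (u₁ u₂ : Q) (l₁ l₂ : MulAut Q), l₁ ∈ L → l₂ ∈ L →
      l₁ = MulAut.conj u₁ * betaAut hE hv → l₂ = MulAut.conj u₂ * betaAut hE hw →
      u₁ * w = w * u₁ := by
    intro v w hv hw hvw t ht1 ht2 u₁ u₂ l₁ l₂ hl₁ hl₂ he₁ he₂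
    by_contra hne
    set B₁ := betaAut hE hv with hB₁
    set B₂ := betaAut hE hw with hB₂
    have hBB : B₁ * B₂ = B₂ * B₁ := betaAut_comm hE hv hw hvw
    have e1 : l₁ * l₂ = MulAut.conj (u₁ * B₁ u₂) * (B₁ * B₂) := by
      rw [he₁, he₂]
      calc MulAut.conj u₁ * B₁ * (MulAut.conj u₂ * B₂)
          = MulAut.conj u₁ * (B₁ * MulAut.conj u₂) * B₂ := by group
        _ = MulAut.conj u₁ * (MulAut.conj (B₁ u₂) * B₁) * B₂ := by rw [aut_mul_conj]
        _ = _ := by rw [map_mul]; group
    have e2 : l₂ * l₁ = MulAut.conj (u₂ * B₂ u₁) * (B₁ * B₂) := by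
      rw [he₁, he₂, hBB]
      calc MulAut.conj u₂ * B₂ * (MulAut.conj u₁ * B₁)
          = MulAut.conj u₂ * (B₂ * MulAut.conj u₁) * B₁ := by group
        _ = MulAut.conj u₂ * (MulAut.conj (B₂ u₁) * B₂) * B₁ := by rw [aut_mul_conj]
        _ = _ := by rw [map_mul]; group
    have e3 : (l₁ * l₂) * (l₂ * l₁)⁻¹ = MulAut.conj ((u₁ * B₁ u₂) * (u₂ * B₂ u₁)⁻¹) := by
      have e4 : MulAut.conj ((u₁ * B₁ u₂) * (u₂ * B₂ u₁)⁻¹)
          = MulAut.conj (u₁ * B₁ u₂) * (MulAut.conj (u₂ * B₂ u₁))⁻¹ := by
        rw [map_mul MulAut.conj (u₁ * B₁ u₂), map_inv]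
      rw [e1, e2, e4]
      group
    have h1 := hbot _ (L.mul_mem (L.mul_mem hl₁ hl₂) (L.inv_mem (L.mul_mem hl₂ hl₁))) _ e3
    rw [e3] at h1
    have h2 := conj_eq_one_iff h1
    have hB2u : B₂ u₁ = u₁ * w := by
      rw [hB₂, betaAut_apply, beta_not hne]
    rw [hB2u] at h2
    -- the correction term
    obtain ⟨r, hr1, hr2⟩ : ∃ r, B₁ u₂ = u₂ * r ∧ r * t = t * r := by
      by_cases hu : u₂ * v = v * u₂
      · refine ⟨1, ?_, by group⟩
        rw [hB₁, betaAut_apply, beta_comm hu, mul_one]
      · refine ⟨v, ?_, ht1.symm⟩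
        rw [hB₁, betaAut_apply, beta_not hu]
    obtain ⟨κ, hκ1, hκ2⟩ : ∃ κ, u₂ * u₁ = κ * (u₁ * u₂) ∧ ∀ x, κ * x = x * κ := by
      rcases hE.d u₂ u₁ with h | h
      · exact ⟨1, by rw [h, one_mul], by intro x; group⟩
      · exact ⟨z, h, fun x => (hE.zc x).symm⟩
    rw [hr1] at h2
    set y := u₁ * u₂ with hy
    have h3 : (u₁ * (u₂ * r)) * (u₂ * (u₁ * w))⁻¹ = y * (r * w⁻¹) * y⁻¹ * κ⁻¹ := by
      have e : u₂ * (u₁ * w) = κ * y * w := by
        rw [hy, ← hκ1]; group
      rw [e, hy]
      group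
    rw [h3] at h2
    set c := y * (r * w⁻¹) * y⁻¹ * κ⁻¹ with hc
    have hκi : ∀ x, κ⁻¹ * x = x * κ⁻¹ := by
      intro x
      have := hκ2 x⁻¹
      calc κ⁻¹ * x = (x⁻¹ * κ)⁻¹ := by group
        _ = (κ * x⁻¹)⁻¹ := by rw [this]
        _ = _ := by group
    have h4 : y * (r * w⁻¹) * y⁻¹ = c * κ := by
      rw [hc]; group
    have h5 : r * w⁻¹ = c * κ := by
      have h6 : y⁻¹ * (c * κ) * y = c * κ := by
        have : (c * κ) * y = y * (c * κ) := by
          calc (c * κ) * y = c * (κ * y) := by group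
            _ = c * (y * κ) := by rw [hκ2]
            _ = (c * y) * κ := by group
            _ = (y * c) * κ := by rw [h2]
            _ = _ := by group
        calc y⁻¹ * (c * κ) * y = y⁻¹ * ((c * κ) * y) := by group
          _ = y⁻¹ * (y * (c * κ)) := by rw [this]
          _ = _ := by group
      rw [← h6, ← h4]
      group
    have h7 : (r * w⁻¹) * t = t * (r * w⁻¹) := by
      rw [h5]
      calc (c * κ) * t = c * (κ * t) := by group
        _ = c * (t * κ) := by rw [hκ2]
        _ = (c * t) * κ := by group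
        _ = (t * c) * κ := by rw [h2]
        _ = _ := by group
    apply ht2
    have h8 : w⁻¹ * t = t * w⁻¹ := by
      have h9 : r * (w⁻¹ * t) = r * (t * w⁻¹) := by
        calc r * (w⁻¹ * t) = (r * w⁻¹) * t := by group
          _ = t * (r * w⁻¹) := h7
          _ = (t * r) * w⁻¹ := by group
          _ = (r * t) * w⁻¹ := by rw [hr2]
          _ = _ := by group
      exact mul_left_cancel h9
    calc t * w = w * (w⁻¹ * t) * w := by group
      _ = w * (t * w⁻¹) * w := by rw [h8]
      _ = w * t := by group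
  -- conclusion
  have h₄ : (a₁ * a₂ * a₃) * (a₁ * a₂ * a₃) = z := by
    calc (a₁ * a₂ * a₃) * (a₁ * a₂ * a₃) = a₁ * a₂ * (a₃ * a₁) * a₂ * a₃ := by group
      _ = a₁ * a₂ * (a₁ * a₃) * a₂ * a₃ := by rw [h13]
      _ = a₁ * (a₂ * a₁) * (a₃ * a₂) * a₃ := by group
      _ = a₁ * (a₁ * a₂) * (a₂ * a₃) * a₃ := by rw [h12, h23]
      _ = (a₁ * a₁) * (a₂ * a₂) * (a₃ * a₃) := by group
      _ = z * z * z := by rw [h₁, h₂, h₃]
      _ = z := by rw [hE.zz, one_mul]
  have h14 : a₁ * (a₁ * a₂ * a₃) = (a₁ * a₂ * a₃) * a₁ := by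
    calc a₁ * (a₁ * a₂ * a₃) = a₁ * (a₁ * a₂) * a₃ := by group
      _ = a₁ * (a₂ * a₁) * a₃ := by rw [h12]
      _ = (a₁ * a₂) * (a₁ * a₃) := by group
      _ = (a₁ * a₂) * (a₃ * a₁) := by rw [h13]
      _ = _ := by group
  have hb24 : b₂ * (a₁ * a₂ * a₃) ≠ (a₁ * a₂ * a₃) * b₂ := by
    intro h
    apply hb22
    have h1 : a₁ * ((b₂ * a₂) * a₃) = a₁ * ((a₂ * b₂) * a₃) := by
      calc a₁ * ((b₂ * a₂) * a₃) = (a₁ * b₂) * a₂ * a₃ := by group
        _ = (b₂ * a₁) * a₂ * a₃ := by rw [hb21]
        _ = b₂ * (a₁ * a₂ * a₃) := by group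
        _ = (a₁ * a₂ * a₃) * b₂ := h
        _ = a₁ * a₂ * (a₃ * b₂) := by group
        _ = a₁ * a₂ * (b₂ * a₃) := by rw [hb23]
        _ = _ := by group
    exact mul_right_cancel (mul_left_cancel h1)
  obtain ⟨u₁, l₁, hl₁, he₁⟩ := hdec (betaAut hE h₁)
  obtain ⟨u₂, l₂, hl₂, he₂⟩ := hdec (betaAut hE h₂)
  obtain ⟨u₃, l₃, hl₃, he₃⟩ := hdec (betaAut hE h₃)
  obtain ⟨u₄, l₄, hl₄, he₄⟩ := hdec (betaAut hE h₄)
  have A := stepA h₁ u₁ l₁ hl₁ he₁
  have B₂ := stepB h₁ h₂ h12 b₂ hb21 hb22 u₁ u₂ l₁ l₂ hl₁ hl₂ he₁ he₂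
  have B₃ := stepB h₁ h₃ h13 b₃ hb31 hb33 u₁ u₃ l₁ l₃ hl₁ hl₃ he₁ he₃
  have B₄ := stepB h₁ h₄ h14 b₂ hb21 hb24 u₁ u₄ l₁ l₄ hl₁ hl₄ he₁ he₄
  apply A
  have h1 : (u₁ * a₁) * (a₂ * a₃) = (a₁ * u₁) * (a₂ * a₃) := by
    calc (u₁ * a₁) * (a₂ * a₃) = u₁ * (a₁ * a₂ * a₃) := by group
      _ = (a₁ * a₂ * a₃) * u₁ := B₄
      _ = a₁ * a₂ * (a₃ * u₁) := by group
      _ = a₁ * a₂ * (u₁ * a₃) := by rw [B₃]
      _ = a₁ * (a₂ * u₁) * a₃ := by group
      _ = a₁ * (u₁ * a₂) * a₃ := by rw [B₂]
      _ = _ := by group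
  exact mul_right_cancel h1

open Cfsg.Agent.H13.ExtraBound in
/-- A pair with an element of order four. -/
theorem order_four_pair [Finite Q] {E : Subgroup Q} {w : ℕ} (h : ExtC 2 E z (w + 1)) :
    ∃ a ∈ E, ∃ b ∈ E, a * b * a⁻¹ * b⁻¹ = z ∧ a * a = z := by
  obtain ⟨a, ha, b, hb, hc⟩ := Cfsg.Agent.H01.exists_pair h
  have hzz : z * z = 1 := by rw [← pow_two]; exact h.zp
  have hzi : z⁻¹ = z := inv_eq_of_mul_eq_one_left hzz
  have hab : a * b = z * (b * a) := by
    rw [← hc]; group
  rcases mem_zpowers_two h.zp (h.pow a ha) with ha2 | ha2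
  · rcases mem_zpowers_two h.zp (h.pow b hb) with hb2 | hb2
    · refine ⟨a * b, E.mul_mem ha hb, b, hb, ?_, ?_⟩
      · calc a * b * b * (a * b)⁻¹ * b⁻¹ = a * b * a⁻¹ * b⁻¹ := by group
          _ = z := hc
      · have hba : b * a = z * (a * b) := by
          calc b * a = (z * z) * (b * a) := by rw [hzz, one_mul]
            _ = z * (z * (b * a)) := by group
            _ = _ := by rw [hab]
        have hza := h.zc a ha
        rw [pow_two] at ha2 hb2
        calc a * b * (a * b) = a * (b * a) * b := by group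
          _ = a * (z * (a * b)) * b := by rw [hba]
          _ = (a * z) * (a * b * b) := by group
          _ = (z * a) * (a * (b * b)) := by rw [hza]; group
          _ = z * (a * a) * (b * b) := by group
          _ = z := by rw [ha2, hb2]; group
    · refine ⟨b, hb, a, ha, ?_, ?_⟩
      · calc b * a * b⁻¹ * a⁻¹ = (a * b * a⁻¹ * b⁻¹)⁻¹ := by group
          _ = z := by rw [hc, hzi]
      · rwa [pow_two] at hb2
  · exact ⟨a, ha, b, hb, hc, by rwa [pow_two] at ha2⟩

end Cfsg.Agent.H08.Griess
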